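import Cfsg.Agent.MathieuIso.Quartet
import Cfsg.Agent.Golay.Steiner
import Cfsg.Agent.Eq.Def_SporadicCombinatorics

/-!
Hexads and quartets of a dodecad.
-/

set_option autoImplicit false

open scoped Pointwise

namespace CfsgLib.Mathieu

open Cfsg CfsgLib.Golay CfsgLib.MathieuIso

theorem hexad_eq {d C C' : Finset GolayPt} (hC : C ∈ hexadsOn d) (hC' : C' ∈ hexadsOn d)
    {s : Finset GolayPt} (hs : 5 ≤ s.card) (h1 : s ⊆ C) (h2 : s ⊆ C') : C = C' := by
  obtain ⟨-, o, ho, rfl⟩ := hC
  obtain ⟨-, o', ho', rfl⟩ := hC'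
  rw [octad_unique hs ho ho' (h1.trans Finset.inter_subset_left) (h2.trans Finset.inter_subset_left)]

theorem smul_mem_hexadsOn {g : Equiv.Perm GolayPt} {d C : Finset GolayPt} (hg : g ∈ fixSet M24 d)
    (hC : C ∈ hexadsOn d) : g • C ∈ hexadsOn d := by
  obtain ⟨h6, o, ho, rfl⟩ := hC
  refine ⟨by rw [Finset.card_smul_finset]; exact h6, g • o, smul_mem_octads hg.1 ho, ?_⟩
  rw [Finset.smul_finset_inter, show g • d = d from hg.2]

theorem hexad_subset {d C : Finset GolayPt} (hC : C ∈ hexadsOn d) : C ⊆ d := by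
  obtain ⟨-, o, -, rfl⟩ := hC
  exact Finset.inter_subset_right

/-- The joint stabiliser of a dodecad and a set, acting on that set. -/
def hexadHom (d C : Finset GolayPt) : ↥(fixSet (fixSet M24 d) C) →* Equiv.Perm C where
  toFun g := (g : Equiv.Perm GolayPt).subtypePerm fun x => by
    have h : (g : Equiv.Perm GolayPt) x ∈ (g : Equiv.Perm GolayPt) • C ↔ x ∈ C :=
      Finset.smul_mem_smul_finset_iff (g : Equiv.Perm GolayPt)
    rwa [show (g : Equiv.Perm GolayPt) • C = C from g.2.2] at h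
  map_one' := Equiv.ext fun p => Subtype.ext rfl
  map_mul' g h := Equiv.ext fun p => Subtype.ext rfl

theorem eq_one_of_fix_hexad {d : Finset GolayPt} (hd : d ∈ dodecads) {g : Equiv.Perm GolayPt}
    (hg : g ∈ fixSet M24 d) {s : Finset GolayPt} (hs : s ⊆ d) (h5 : 5 ≤ s.card)
    (hfix : ∀ p ∈ s, g p = p) : g = 1 := by
  obtain ⟨t, ht, htc⟩ := Finset.exists_subset_card_eq h5
  exact eq_one_of_fix_five_dodecad hd hg (xs := t.toList) (by simp [htc]) t.nodup_toList
    (fun x hx => hs (ht (Finset.mem_toList.1 hx))) (fun x hx => hfix x (ht (Finset.mem_toList.1 hx)))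

theorem hexad_stabilizer {d : Finset GolayPt} (hd : d ∈ dodecads) {C : Finset GolayPt}
    (hC : C ∈ hexadsOn d) : Nonempty (↥(fixSet (fixSet M24 d) C) ≃* Equiv.Perm (Fin 6)) := by
  have hCd := hexad_subset hC
  have hinj : Function.Injective (hexadHom d C) := (injective_iff_map_eq_one _).2 fun g hg =>
    Subtype.ext (eq_one_of_fix_hexad hd g.2.1 hCd (by rw [hC.1]; norm_num) fun p hp =>
      congrArg Subtype.val (Equiv.Perm.ext_iff.1 hg ⟨p, hp⟩))
  have hsurj : Function.Surjective (hexadHom d C) := by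
    intro σ
    obtain ⟨e⟩ : Nonempty (Fin 6 ≃ C) :=
      ⟨(Fintype.equivFinOfCardEq (by simpa using hC.1)).symm⟩
    set xs : List GolayPt := List.ofFn fun i : Fin 5 => (e i.castSucc : GolayPt) with hxs
    set ys : List GolayPt := List.ofFn fun i : Fin 5 => (σ (e i.castSucc) : GolayPt) with hys
    have hn1 : Function.Injective fun i : Fin 5 => (e i.castSucc : GolayPt) :=
      Subtype.val_injective.comp (e.injective.comp (Fin.castSucc_injective 5))
    have hn2 : Function.Injective fun i : Fin 5 => (σ (e i.castSucc) : GolayPt) :=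
      Subtype.val_injective.comp (σ.injective.comp (e.injective.comp (Fin.castSucc_injective 5)))
    obtain ⟨g, hg, hmap⟩ := exists_map_five_dodecad hd (xs := xs) (ys := ys)
      (by simp [hxs]) (List.nodup_ofFn.2 hn1)
      (fun x hx => by
        simp only [hxs, List.mem_ofFn] at hx
        obtain ⟨i, rfl⟩ := hx
        exact hCd (e i.castSucc).2)
      (by simp [hys]) (List.nodup_ofFn.2 hn2)
      (fun x hx => by
        simp only [hys, List.mem_ofFn] at hx
        obtain ⟨i, rfl⟩ := hx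
        exact hCd (σ (e i.castSucc)).2)
    rw [hxs, hys, List.map_ofFn, List.ofFn_inj] at hmap
    have hgi : ∀ i : Fin 5, g (e i.castSucc : GolayPt) = (σ (e i.castSucc) : GolayPt) :=
      fun i => congrFun hmap i
    have hgC : g • C = C := by
      refine hexad_eq (smul_mem_hexadsOn hg hC) hC
        (s := Finset.univ.image fun i : Fin 5 => (σ (e i.castSucc) : GolayPt))
        (by rw [Finset.card_image_of_injective _ hn2, Finset.card_univ, Fintype.card_fin]) ?_ ?_
      · intro p hp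
        simp only [Finset.mem_image, Finset.mem_univ, true_and] at hp
        obtain ⟨i, rfl⟩ := hp
        rw [← hgi i]
        exact Finset.smul_mem_smul_finset (e i.castSucc).2
      · intro p hp
        simp only [Finset.mem_image, Finset.mem_univ, true_and] at hp
        obtain ⟨i, rfl⟩ := hp
        exact (σ (e i.castSucc)).2
    set G : ↥(fixSet (fixSet M24 d) C) := ⟨g, hg, hgC⟩ with hG
    refine ⟨G, Equiv.ext fun x => ?_⟩
    obtain ⟨i, rfl⟩ := e.surjective x
    refine Fin.lastCases ?_ (fun j => ?_) i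
    · -- the sixth point goes to the only remaining one
      obtain ⟨k, hk⟩ := e.surjective (σ⁻¹ (hexadHom d C G (e (Fin.last 5))))
      have hk' : σ (e k) = hexadHom d C G (e (Fin.last 5)) := by rw [hk]; simp
      refine Fin.lastCases (fun h => ?_) (fun j h => ?_) k hk'
      · exact h.symm
      · have h2 : hexadHom d C G (e j.castSucc) = σ (e j.castSucc) := Subtype.ext (hgi j)
        have h3 := e.injective ((hexadHom d C G).injective (h2.trans h))
        exact absurd h3 (Fin.castSucc_ne_last j)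
    · exact Subtype.ext (hgi j)
  obtain ⟨e6⟩ : Nonempty (C ≃ Fin 6) := ⟨Fintype.equivFinOfCardEq (by simpa using hC.1)⟩
  exact ⟨(MulEquiv.ofBijective (hexadHom d C) ⟨hinj, hsurj⟩).trans e6.permCongrHom⟩

/-- The joint stabiliser inside `M24` of a dodecad and a set, as a subgroup of the symmetric
group. -/
def stabHexadEquiv (d C : Finset GolayPt) :
    ↥(MulAction.stabilizer M24 d ⊓ MulAction.stabilizer M24 C) ≃* fixSet (fixSet M24 d) C where
  toFun g := ⟨g.1.1, ⟨g.1.2, g.2.1⟩, g.2.2⟩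
  invFun g := ⟨⟨g.1, g.2.1.1⟩, g.2.1.2, g.2.2⟩
  left_inv _ := rfl
  right_inv _ := rfl
  map_mul' _ _ := rfl

/-- The octads cutting out the six hexads of the standard quartet. -/
def quartOctads : List ℕ := [1065303, 2183687, 3416079, 3216208, 2384216, 1405448]

theorem stdQuartet_mem : stdQuartet ∈ quartets Cfsg.Spor.squareDodecad := by
  have hall : (quartsQ.getD 0 []).all (fun a => decide (a < 2 ^ 24) && pop a == 3 &&
      a &&& maskD0 == a && (quartsQ.getD 0 []).all fun b => a == b || (pop (a ||| b) == 6 &&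
        quartOctads.any fun o => inCode o && pop o == 8 && o &&& maskD0 == a ||| b)) = true ∧
      (quartsQ.getD 0 []).Nodup ∧ (quartsQ.getD 0 []).length = 4 := by decide +kernel
  obtain ⟨hall, hnd, hlen⟩ := hall
  simp only [List.all_eq_true, Bool.and_eq_true, decide_eq_true_eq, beq_iff_eq, Bool.or_eq_true,
    List.any_eq_true] at hall
  refine ⟨?_, ?_, ?_⟩
  · rw [stdQuartet, quartSet, List.card_toFinset, List.dedup_eq_self.2, List.length_map, hlen]
    exact hnd.map_on fun a ha b hb e => by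
      rw [← toMask_ofMask (hall a ha).1.1.1, e, toMask_ofMask (hall b hb).1.1.1]
  · intro t ht
    rw [stdQuartet, quartSet, List.mem_toFinset, List.mem_map] at ht
    obtain ⟨a, ha, rfl⟩ := ht
    refine ⟨by rw [← pop_eq_card]; exact (hall a ha).1.1.2, ?_⟩
    rw [squareDodecad_eq, ← (hall a ha).1.2, ofMask_land]
    exact Finset.inter_subset_right
  · intro t ht u hu htu
    rw [stdQuartet, quartSet, List.mem_toFinset, List.mem_map] at ht hu
    obtain ⟨a, ha, rfl⟩ := ht
    obtain ⟨b, hb, rfl⟩ := hu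
    obtain ⟨h6, o, -, ⟨ho1, ho2⟩, ho3⟩ := ((hall a ha).2 b hb).resolve_left fun e => htu (by rw [e])
    refine ⟨by rw [← ofMask_lor, ← pop_eq_card]; exact h6, ofMask o, ofMask_mem_octads ho1 ho2, ?_⟩
    rw [squareDodecad_eq, ← ofMask_land, ho3, ofMask_lor]

theorem quartets_count {d : Finset GolayPt} (hd : d ∈ dodecads) :
    (quartets d).ncard = 220 ∧ ∀ Q ∈ quartets d, ∀ Q' ∈ quartets d,
      ∃ g : Equiv.Perm GolayPt, g ∈ M24 ∧ g • d = d ∧ g • Q = Q' := by
  have htrans : ∀ Q ∈ quartets d, ∀ Q' ∈ quartets d,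
      ∃ g : Equiv.Perm GolayPt, g ∈ M24 ∧ g • d = d ∧ g • Q = Q' := by
    intro Q hQ Q' hQ'
    obtain ⟨c, hc, hcd, hcQ⟩ := exists_quartet_conj hd hQ
    obtain ⟨c', hc', hcd', hcQ'⟩ := exists_quartet_conj hd hQ'
    refine ⟨c' * c⁻¹, M24.mul_mem hc' (M24.inv_mem hc), ?_, ?_⟩
    · rw [mul_smul, inv_smul_eq_iff.2 hcd.symm, hcd']
    · rw [mul_smul, inv_smul_eq_iff.2 hcQ.symm, hcQ']
  refine ⟨?_, htrans⟩
  obtain ⟨c, hc, hcd⟩ := exists_map_squareDodecad hd
  have hQ0 : c • stdQuartet ∈ quartets d := hcd ▸ smul_mem_quartets hc stdQuartet_mem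
  set Q := c • stdQuartet
  have horb : MulAction.orbit ↥(fixSet M24 d) Q = quartets d := by
    ext R
    refine ⟨fun ⟨g, e⟩ => ?_, fun hR => ?_⟩
    · rw [← e]
      have hgd : (g : Equiv.Perm GolayPt) • d = d := g.2.2
      have := smul_mem_quartets g.2.1 hQ0
      rwa [hgd] at this
    · obtain ⟨g, hg, hgd, hgQ⟩ := htrans Q hQ0 R hR
      exact ⟨⟨g, hg, hgd⟩, hgQ⟩
  have h1 := MulAction.index_stabilizer (↥(fixSet M24 d)) Q
  rw [horb] at h1
  have h3 := Subgroup.card_mul_index (MulAction.stabilizer (↥(fixSet M24 d)) Q)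
  have e : MulAction.stabilizer ↥(fixSet M24 d) Q ≃
      ↥(MulAction.stabilizer M24 d ⊓ MulAction.stabilizer M24 Q) :=
    { toFun := fun g => ⟨⟨g.1.1, g.1.2.1⟩, g.1.2.2, g.2⟩
      invFun := fun g => ⟨⟨g.1.1, g.1.2, g.2.1⟩, g.2.2⟩
      left_inv := fun _ => rfl
      right_inv := fun _ => rfl }
  obtain ⟨eq⟩ := (quartet_stabilizer hd hQ0).1
  rw [Nat.card_congr (e.trans eq.toEquiv), quartStab_structure.1, h1, card_fixSet_dodecad hd] at h3
  omega

end CfsgLib.Mathieu
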