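import Cfsg.Agent.Mathieu.Multiplier
import Cfsg.Agent.Mathieu.DoubleTwelveData

/-!
The double cover of `M12`, as the signed permutations of the 24 points lying over `M12` and preserving
a Hadamard matrix of order 12 between the dodecad of squares and its complement.
-/

set_option autoImplicit false
set_option maxRecDepth 20000
set_option synthInstance.maxSize 512

namespace CfsgLib.Mathieu.DoubleTwelve

open Cfsg CfsgLib.Golay CfsgLib.Mathieu CfsgLib.Mathieu.Code
open scoped Pointwise commutatorElement

attribute [local irreducible] enc cmpC idC code permOf elts cert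

/-- Permutations of the signed points. -/
abbrev SPerm := Equiv.Perm (GolayPt × Bool)

/-- The matrix entry of a point of the dodecad of squares and a point outside. -/
def had (i j : GolayPt) : Bool := (hadamard.getD (p2i i) 0).testBit (p2i j)

/-- The action on the points. -/
def fstMap (π : SPerm) (p : GolayPt) : GolayPt := (π (p, false)).1

/-- The sign at a point. -/
def sgnMap (π : SPerm) (p : GolayPt) : Bool := (π (p, false)).2

/-- A signed permutation over `M12` preserving the matrix. -/
structure IsAut (π : SPerm) : Prop where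
  flip : ∀ p a, π (p, a) = (fstMap π p, xor a (sgnMap π p))
  base : ∃ g ∈ Spor.M12, ∀ p, g p = fstMap π p
  pres : ∀ i ∈ Spor.squareDodecad, ∀ j, j ∉ Spor.squareDodecad →
    had (fstMap π i) (fstMap π j) = xor (had i j) (xor (sgnMap π i) (sgnMap π j))

theorem isAut_one : IsAut 1 :=
  ⟨fun p a => by cases a <;> rfl, ⟨1, one_mem _, fun _ => rfl⟩,
    fun i _ j _ => by show had i j = xor (had i j) (xor false false); simp⟩

theorem isAut_mul {π τ : SPerm} (hπ : IsAut π) (hτ : IsAut τ) : IsAut (π * τ) := by
  have hf : ∀ p, fstMap (π * τ) p = fstMap π (fstMap τ p) := fun p => by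
    show (π (τ (p, false))).1 = _
    rw [hτ.flip p false, hπ.flip]
  have hs : ∀ p, sgnMap (π * τ) p = xor (sgnMap τ p) (sgnMap π (fstMap τ p)) := fun p => by
    show (π (τ (p, false))).2 = _
    rw [hτ.flip p false, hπ.flip]
    simp
  obtain ⟨g, hg, hgf⟩ := hπ.base
  obtain ⟨h, hh, hhf⟩ := hτ.base
  refine ⟨fun p a => ?_, ⟨g * h, mul_mem hg hh, fun p => ?_⟩, fun i hi j hj => ?_⟩
  · show π (τ (p, a)) = _
    rw [hτ.flip, hπ.flip, hf, hs, Bool.xor_assoc]
  · rw [Equiv.Perm.mul_apply, hhf, hgf, hf]
  · have hst := MulAction.mem_stabilizer_iff.1 hh.2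
    have mem : ∀ p, fstMap τ p ∈ Spor.squareDodecad ↔ p ∈ Spor.squareDodecad := fun p => by
      rw [← hhf]
      conv_lhs => rw [← hst]
      exact Finset.smul_mem_smul_finset_iff h
    rw [hf, hf, hs, hs, hπ.pres _ ((mem i).2 hi) _ (fun h' => hj ((mem j).1 h')), hτ.pres i hi j hj]
    cases had i j <;> cases sgnMap τ i <;> cases sgnMap τ j <;> cases sgnMap π (fstMap τ i) <;>
      cases sgnMap π (fstMap τ j) <;> rfl

/-- The double cover of `M12`. -/
def Cover : Subgroup SPerm where
  carrier := {π | IsAut π}
  one_mem' := isAut_one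
  mul_mem' := fun ha hb => isAut_mul ha hb
  inv_mem' := fun {a} ha => by
    have hp : ∀ n : ℕ, IsAut (a ^ n) := fun n => by
      induction n with
      | zero => rw [pow_zero]; exact isAut_one
      | succ n ih => rw [pow_succ]; exact isAut_mul ih ha
    show IsAut a⁻¹
    rw [← mul_one a⁻¹, ← pow_orderOf_eq_one a, ← Nat.succ_pred_eq_of_pos (orderOf_pos a), pow_succ',
      inv_mul_cancel_left]
    exact hp _

theorem proj_fun (π : ↥Cover) : ∃ g : ↥Spor.M12, ∀ p, (g : Equiv.Perm GolayPt) p = fstMap π p := by
  obtain ⟨g, hg, h⟩ := π.2.base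
  exact ⟨⟨g, hg⟩, h⟩

/-- The projection onto `M12`. -/
noncomputable def proj : ↥Cover →* ↥Spor.M12 :=
  MonoidHom.mk' (fun π => (proj_fun π).choose) fun π τ => by
    refine Subtype.ext (Equiv.ext fun p => ?_)
    show ((proj_fun (π * τ)).choose : Equiv.Perm GolayPt) p =
      ((proj_fun π).choose : Equiv.Perm GolayPt) (((proj_fun τ).choose : Equiv.Perm GolayPt) p)
    refine ((proj_fun (π * τ)).choose_spec p).trans ?_
    rw [(proj_fun τ).choose_spec p, (proj_fun π).choose_spec]
    show ((π : SPerm) ((τ : SPerm) (p, false))).1 = _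
    rw [τ.2.flip p false, π.2.flip]

theorem proj_apply (π : ↥Cover) (p : GolayPt) :
    (proj π : Equiv.Perm GolayPt) p = fstMap π p :=
  (proj_fun π).choose_spec p

/-- The change of all signs. -/
def zPerm : SPerm where
  toFun x := (x.1, !x.2)
  invFun x := (x.1, !x.2)
  left_inv := fun ⟨_, a⟩ => by simp
  right_inv := fun ⟨_, a⟩ => by simp

theorem zPerm_mem : zPerm ∈ Cover :=
  ⟨fun p a => by cases a <;> rfl, ⟨1, one_mem _, fun _ => rfl⟩,
    fun i _ j _ => by show had i j = xor (had i j) (xor true true); simp⟩

/-- The central involution. -/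
def zC : ↥Cover := ⟨zPerm, zPerm_mem⟩

/-- The sign of the lift of a permutation at a point. -/
def eps (g : Equiv.Perm GolayPt) (p : GolayPt) : Bool :=
  if p ∈ Spor.squareDodecad then
    xor (xor (had (g p) (g none)) (had p none))
      (xor (had (g (some 0)) (g none)) (had (some 0) none))
  else xor (had (g (some 0)) (g p)) (had (some 0) p)

/-- The lift of a permutation. -/
def liftPerm (g : Equiv.Perm GolayPt) : SPerm where
  toFun x := (g x.1, xor x.2 (eps g x.1))
  invFun y := (g.symm y.1, xor y.2 (eps g (g.symm y.1)))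
  left_inv := fun ⟨p, a⟩ => by simp [Bool.xor_assoc]
  right_inv := fun ⟨p, a⟩ => by simp [Bool.xor_assoc]

/-- The lifts used in the certificate, the first being the central involution. -/
def genPerm : ℕ → SPerm
  | 0 => zPerm
  | k + 1 => liftPerm (Multiplier.permAt elts k)

theorem elts_mem : ∀ k < elts.length, Multiplier.permAt elts k ∈ Spor.M12 := by
  have hl : elts.length = 15 := by decide +kernel
  have key : ∀ k < 15,
      (∀ b ∈ basisMasks, inCode (toMask (Multiplier.permAt elts k • ofMask b)) = true) ∧
      Multiplier.permAt elts k • Spor.squareDodecad = Spor.squareDodecad := by decide +kernel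
  exact fun k hk => ⟨mem_M24_iff.mpr (key k (hl ▸ hk)).1,
    MulAction.mem_stabilizer_iff.mpr (key k (hl ▸ hk)).2⟩

theorem genPerm_mem : ∀ k, genPerm k ∈ Cover
  | 0 => zPerm_mem
  | k + 1 => by
    refine ⟨fun p a => ?_, ⟨_, Multiplier.permAt_mem elts_mem k, fun _ => rfl⟩, ?_⟩
    · show (_, _) = ((_ : GolayPt), xor a (xor false _))
      rw [Bool.false_xor]
      rfl
    · rcases lt_or_ge k 15 with h | h
      · have key : ∀ k < 15, ∀ i j : GolayPt, i ∈ Spor.squareDodecad → j ∉ Spor.squareDodecad →
            had (fstMap (genPerm (k + 1)) i) (fstMap (genPerm (k + 1)) j) =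
              xor (had i j) (xor (sgnMap (genPerm (k + 1)) i) (sgnMap (genPerm (k + 1)) j)) := by
          decide +kernel
        exact fun i hi j hj => key k h i j hi hj
      · have hl : elts.length = 15 := by decide +kernel
        have key : ∀ i ∈ Spor.squareDodecad, ∀ j, j ∉ Spor.squareDodecad →
            had i j = xor (had i j) (xor (eps 1 i) (eps 1 j)) := by decide +kernel
        intro i hi j hj
        show had (Multiplier.permAt elts k i) (Multiplier.permAt elts k j) =
          xor (had i j) (xor (xor false (eps (Multiplier.permAt elts k) i))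
            (xor false (eps (Multiplier.permAt elts k) j)))
        rw [Multiplier.permAt_of_le (hl ▸ h), Bool.false_xor, Bool.false_xor]
        exact key i hi j hj

/-- The generators in the cover. -/
def gen (k : ℕ) : ↥Cover := ⟨genPerm k, genPerm_mem k⟩

theorem proj_gen_succ (k : ℕ) :
    (proj (gen (k + 1)) : Equiv.Perm GolayPt) = Multiplier.permAt elts k :=
  Equiv.ext fun p => proj_apply _ p

theorem proj_zC : proj zC = 1 := Subtype.ext (Equiv.ext fun p => proj_apply _ p)

theorem zC_ne : zC ≠ 1 := fun h => by
  have h' : (!false : Bool) = false :=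
    congrArg (fun π : ↥Cover => ((π : SPerm) (none, false)).2) h
  simp at h'

theorem mem_ker_proj {π : ↥Cover} (h : π ∈ proj.ker) : π = 1 ∨ π = zC := by
  have hf : ∀ p, fstMap π p = p := fun p => by
    rw [← proj_apply, MonoidHom.mem_ker.1 h]; rfl
  have hnone : (none : GolayPt) ∉ Spor.squareDodecad := by decide +kernel
  have hzero : (some 0 : GolayPt) ∈ Spor.squareDodecad := by decide +kernel
  have hc : ∀ p, sgnMap π p = sgnMap π none := by
    have h0 : ∀ i ∈ Spor.squareDodecad, ∀ j, j ∉ Spor.squareDodecad →
        sgnMap π i = sgnMap π j := fun i hi j hj => by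
      have := π.2.pres i hi j hj
      rw [hf, hf] at this
      revert this
      cases had i j <;> cases sgnMap π i <;> cases sgnMap π j <;> simp
    intro p
    by_cases hp : p ∈ Spor.squareDodecad
    · exact h0 p hp none hnone
    · rw [← h0 _ hzero p hp]; exact h0 _ hzero none hnone
  rcases hb : sgnMap (π : SPerm) none with _ | _
  · refine Or.inl (Subtype.ext (Equiv.ext fun ⟨p, a⟩ => ?_))
    rw [π.2.flip, hf, hc, hb, Bool.xor_false]
    rfl
  · refine Or.inr (Subtype.ext (Equiv.ext fun ⟨p, a⟩ => ?_))
    rw [π.2.flip, hf, hc, hb, Bool.xor_true]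
    rfl

theorem card_ker_proj : Nat.card proj.ker = 2 := by
  rw [Nat.card_eq_two_iff]
  refine ⟨1, ⟨zC, proj_zC⟩, fun h => zC_ne (congrArg Subtype.val h).symm,
    Set.eq_univ_of_forall fun x => ?_⟩
  rcases mem_ker_proj x.2 with h | h
  · exact Or.inl (Subtype.ext h)
  · exact Or.inr (Subtype.ext h)

theorem evalW_eq (u v : List ℕ) (h : ∀ x, ((u.map genPerm).prod : SPerm) x = (v.map genPerm).prod x) :
    Schur.TwoCert.evalW gen u = Schur.TwoCert.evalW gen v := by
  have hev : ∀ w, ((Schur.TwoCert.evalW gen w : ↥Cover) : SPerm) = (w.map genPerm).prod := by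
    intro w
    rw [Schur.TwoCert.evalW, Subgroup.val_list_prod, List.map_map]
    rfl
  refine Subtype.ext (Equiv.ext fun x => ?_)
  rw [hev, hev]
  exact h x

/-- The first generator of a Sylow 3-subgroup of the cover. -/
def threeA : ↥Cover := gen 11 ^ 4

/-- The second generator of a Sylow 3-subgroup of the cover. -/
def threeB : ↥Cover := gen 12 ^ 4

theorem coe_proj_pow (k n : ℕ) :
    ((proj (gen (k + 1) ^ n) : ↥Spor.M12) : Equiv.Perm GolayPt) = Multiplier.permAt elts k ^ n := by
  rw [map_pow, Subgroup.coe_pow, proj_gen_succ]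

theorem range_proj : proj.range = ⊤ := by
  have hok : Multiplier.allOK elts = true := by decide +kernel
  -- a Sylow 2-subgroup
  let g : ℕ → ↥Spor.M12 := fun k => ⟨_, Multiplier.permAt_mem elts_mem k⟩
  have hg : ∀ k, proj (gen (k + 1)) = g k := fun k => Subtype.ext (proj_gen_succ k)
  have hord : ∀ k n : ℕ, n.Prime → Multiplier.permAt elts k ^ n = 1 →
      Multiplier.permAt elts k ≠ 1 → n ∣ Nat.card proj.range := by
    intro k n hn h1 h2
    haveI := Fact.mk hn
    have ho : orderOf (g k) = n := orderOf_eq_prime (Subtype.ext h1) fun h => h2 (congrArg Subtype.val h)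
    rw [← ho, show orderOf (g k) = orderOf (⟨g k, ⟨_, hg k⟩⟩ : proj.range) from
      orderOf_injective proj.range.subtype Subtype.val_injective ⟨g k, ⟨_, hg k⟩⟩]
    exact orderOf_dvd_natCard _
  have h11 : 11 ∣ Nat.card proj.range :=
    hord 13 11 (by norm_num) (Equiv.ext (by decide +kernel))
      (fun h => absurd (Equiv.ext_iff.1 h) (by decide +kernel))
  have h5 : 5 ∣ Nat.card proj.range :=
    hord 14 5 (by norm_num) (Equiv.ext (by decide +kernel))
      (fun h => absurd (Equiv.ext_iff.1 h) (by decide +kernel))
  have hP : pcOK (elts.take 6).reverse = true := by decide +kernel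
  have h64 : 64 ∣ Nat.card proj.range := by
    have hle : grpOf (elts.take 6).reverse ≤ proj.range.map Spor.M12.subtype := by
      rw [grpOf, Subgroup.closure_le]
      intro p hp
      simp only [Set.mem_setOf_eq, List.map_reverse, List.mem_reverse, List.mem_map] at hp
      obtain ⟨a, ha, hap⟩ := hp
      obtain ⟨k, hk, rfl⟩ := List.getElem_of_mem ha
      refine ⟨g k, ⟨_, hg k⟩, code_injective ?_⟩
      show code (Multiplier.permAt elts k) = code p
      rw [Multiplier.code_permAt hok, ← hap, List.getElem_take]
      rw [List.getD_eq_getElem]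
    have := Subgroup.card_dvd_of_le hle
    rw [(spanSpec _ hP).card, Subgroup.card_map_of_injective Spor.M12.subtype_injective] at this
    rwa [show (elts.take 6).reverse.length = 6 by decide +kernel] at this
  have h27 : 27 ∣ Nat.card proj.range := by
    obtain ⟨H, hc, hle⟩ := Multiplier.threeSylow Spor.M12 [elts.getD 10 (0, 0), elts.getD 11 (0, 0)]
      Multiplier.words27 (by decide +kernel)
      (by
        intro k hk
        have key : ∀ k < 2, Multiplier.permAt [elts.getD 10 (0, 0), elts.getD 11 (0, 0)] k =
            Multiplier.permAt elts (10 + k) := by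
          intro k hk
          interval_cases k <;> exact Equiv.ext (by decide +kernel)
        rw [key k hk]
        exact Multiplier.permAt_mem elts_mem _)
      (by decide +kernel) (by decide +kernel) (by decide +kernel) (by decide +kernel)
    have hle' : H ≤ proj.range := hle.trans ((Subgroup.closure_le _).2 (by
      rintro x (rfl | rfl)
      · refine ⟨gen 11, (hg 10).trans (Subtype.ext ?_)⟩
        exact Equiv.ext (by decide +kernel)
      · refine ⟨gen 12, (hg 11).trans (Subtype.ext ?_)⟩
        exact Equiv.ext (by decide +kernel)))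
    have := Subgroup.card_dvd_of_le hle'
    rwa [hc, show Multiplier.words27.length = 27 from rfl] at this
  have hall : 95040 ∣ Nat.card proj.range := by
    have e1 := Nat.Coprime.mul_dvd_of_dvd_of_dvd (by norm_num) h64 h27
    have e2 := Nat.Coprime.mul_dvd_of_dvd_of_dvd (by norm_num) e1 h5
    have e3 := Nat.Coprime.mul_dvd_of_dvd_of_dvd (by norm_num) e2 h11
    rwa [show (64 : ℕ) * 27 * 5 * 11 = 95040 by norm_num] at e3
  apply Subgroup.eq_top_of_card_eq
  rw [card_M12]
  exact Nat.dvd_antisymm (card_M12 ▸ Subgroup.card_subgroup_dvd_card proj.range) hall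

theorem card_cover : Nat.card ↥Cover = 190080 := by
  have h := proj.ker.card_mul_index
  rw [card_ker_proj, Subgroup.index_ker, range_proj, Subgroup.card_top, card_M12] at h
  omega

theorem isStem : Cfsg.IsStemExtension proj := by
  refine ⟨MonoidHom.range_eq_top.1 range_proj, fun π hπ => ?_, fun π hπ => ?_⟩
  · refine Subgroup.mem_center_iff.2 fun τ => ?_
    rcases mem_ker_proj hπ with rfl | rfl
    · simp
    · refine Subtype.ext (Equiv.ext fun ⟨p, a⟩ => ?_)
      show (τ : SPerm) (p, !a) = zPerm ((τ : SPerm) (p, a))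
      rw [τ.2.flip, τ.2.flip p a]
      show (_, _) = (_, !(xor a _))
      simp
  · rcases mem_ker_proj hπ with rfl | rfl
    · exact one_mem _
    · have h : Schur.TwoCert.evalW gen [3, 5, 4] =
          Schur.TwoCert.evalW gen [0, 5, 4, 3] := evalW_eq _ _ (by decide +kernel)
      have he : zC = ⁅gen 3, gen 5 * gen 4⁆ := by
        rw [commutatorElement_def]
        simp only [Schur.TwoCert.evalW, List.map_cons, List.map_nil, List.prod_cons, List.prod_nil,
          mul_one] at h
        rw [show gen 0 = zC from rfl] at h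
        rw [show gen 3 * (gen 5 * gen 4) = gen 3 * (gen 5 * gen 4) * 1 by rw [mul_one], mul_one,
          h]
        group
      rw [he]
      exact Subgroup.commutator_mem_commutator (Subgroup.mem_top _) (Subgroup.mem_top _)

theorem not_two_dvd {Δ : Type} [Group Δ] [Finite Δ] (σ : Δ →* ↥Cover)
    (hσ : Cfsg.IsStemExtension σ) : ¬ 2 ∣ Nat.card σ.ker := by
  have hn : cert.n = 7 := by decide +kernel
  have hokC : Schur.TwoCert.ok cert = true := by decide +kernel
  have hrel : ∀ r < cert.rules.length, Schur.TwoCert.evalW gen (cert.rules.getD r ([], [])).1 =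
      Schur.TwoCert.evalW gen (cert.rules.getD r ([], [])).2 := by
    have hl : cert.rules.length = 38 := by decide +kernel
    have key : ∀ r < 38, ∀ x, (((cert.rules.getD r ([], [])).1).map genPerm).prod x =
        (((cert.rules.getD r ([], [])).2).map genPerm).prod x := by decide +kernel
    exact fun r hr => evalW_eq _ _ (key r (hl ▸ hr))
  set H := Subgroup.closure (gen '' {i | i < cert.n}) with hH
  have hle : Nat.card H ≤ 2 ^ cert.n := by
    simp only [Schur.TwoCert.ok, Bool.and_eq_true, decide_eq_true_eq] at hokC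
    rw [show Nat.card H = (H : Set ↥Cover).ncard from Nat.card_coe_set_eq _]
    exact Schur.TwoCert.ncard_closure_le hokC.1.2 gen
      (fun r hr => hrel r (lt_of_lt_of_le hr hokC.1.1.2)) cert.n le_rfl
  have hge : 128 ≤ Nat.card H := by
    have hok : Multiplier.allOK elts = true := by decide +kernel
    have hP : pcOK (elts.take 6).reverse = true := by decide +kernel
    have himg : grpOf (elts.take 6).reverse ≤ (H.map proj).map Spor.M12.subtype := by
      rw [grpOf, Subgroup.closure_le]
      intro p hp
      simp only [Set.mem_setOf_eq, List.map_reverse, List.mem_reverse, List.mem_map] at hp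
      obtain ⟨a, ha, hap⟩ := hp
      obtain ⟨k, hk, rfl⟩ := List.getElem_of_mem ha
      have hk6 : k < 6 := by rw [List.length_take] at hk; omega
      refine ⟨proj (gen (k + 1)), ⟨gen (k + 1), Subgroup.subset_closure ⟨k + 1, ?_, rfl⟩, rfl⟩,
        code_injective ?_⟩
      · show k + 1 < cert.n
        omega
      show code (proj (gen (k + 1)) : Equiv.Perm GolayPt) = code p
      rw [proj_gen_succ, Multiplier.code_permAt hok, ← hap, List.getElem_take]
      rw [List.getD_eq_getElem]
    have h64 := Subgroup.card_le_of_le himg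
    rw [(spanSpec _ hP).card, Subgroup.card_map_of_injective Spor.M12.subtype_injective,
      show (elts.take 6).reverse.length = 6 by decide +kernel] at h64
    have hsplit := (proj.subgroupMap H).ker.card_mul_index
    rw [Subgroup.index_ker, MonoidHom.range_eq_top.2 (proj.subgroupMap_surjective H),
      Subgroup.card_top] at hsplit
    have hz : zC ∈ H := Subgroup.subset_closure ⟨0, by show 0 < cert.n; omega, rfl⟩
    have h2 : 2 ≤ Nat.card (proj.subgroupMap H).ker := by
      have : Nontrivial (proj.subgroupMap H).ker :=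
        ⟨⟨⟨zC, hz⟩, Subtype.ext proj_zC⟩, 1, fun h =>
          zC_ne (congrArg (fun x : (proj.subgroupMap H).ker => ((x : H) : ↥Cover)) h)⟩
      exact Finite.one_lt_card
    rw [← hsplit]
    calc 128 = 2 * 2 ^ 6 := by norm_num
      _ ≤ _ := Nat.mul_le_mul h2 h64
  have hcard : Nat.card H = 2 ^ cert.n := by
    refine le_antisymm hle ?_
    rw [hn]
    exact hge
  refine Schur.TwoCert.not_two_dvd_card_ker hσ hokC gen hrel hcard ?_
  rw [← hH]
  have := H.card_mul_index
  rw [hcard, hn, card_cover] at this
  norm_num at this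
  omega

theorem not_three_dvd {Δ : Type} [Group Δ] [Finite Δ] (σ : Δ →* ↥Cover)
    (hσ : Cfsg.IsStemExtension σ) : ¬ 3 ∣ Nat.card σ.ker := by
  have hA : threeA ^ 3 = 1 := Subtype.ext (Equiv.ext (by decide +kernel))
  have hB : threeB ^ 3 = 1 := Subtype.ext (Equiv.ext (by decide +kernel))
  refine Schur.ThreeGroups.not_three_dvd_of_invert hσ (Subgroup.closure {threeA, threeB}) ?_
    (g := gen 13) le_rfl hA hB ?_ ?_ ?_ ?_ ?_
  · -- the image in `M12` has order divisible by 27
    obtain ⟨H, hc, hle⟩ := Multiplier.threeSylow Spor.M12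
      [elts.getD 10 (0, 0), elts.getD 11 (0, 0)] Multiplier.words27 (by decide +kernel)
      (by
        intro k hk
        have key : ∀ k < 2, Multiplier.permAt [elts.getD 10 (0, 0), elts.getD 11 (0, 0)] k =
            Multiplier.permAt elts (10 + k) := by
          intro k hk
          interval_cases k <;> exact Equiv.ext (by decide +kernel)
        rw [key k hk]
        exact Multiplier.permAt_mem elts_mem _)
      (by decide +kernel) (by decide +kernel) (by decide +kernel) (by decide +kernel)
    have hle' : H ≤ (Subgroup.closure {threeA, threeB}).map proj := hle.trans ((Subgroup.closure_le _).2 (by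
      rintro x (rfl | rfl)
      · refine ⟨threeA, Subgroup.subset_closure (Set.mem_insert _ _), Subtype.ext ?_⟩
        rw [threeA, coe_proj_pow]
        exact Equiv.ext (by decide +kernel)
      · refine ⟨threeB, Subgroup.subset_closure (Set.mem_insert_of_mem _ rfl), Subtype.ext ?_⟩
        rw [threeB, coe_proj_pow]
        exact Equiv.ext (by decide +kernel)))
    have h27 := (Subgroup.card_dvd_of_le hle').trans ((Subgroup.closure {threeA, threeB}).card_map_dvd proj)
    rw [hc, show Multiplier.words27.length = 27 from rfl] at h27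
    obtain ⟨q, hq⟩ := h27
    have := (Subgroup.closure {threeA, threeB}).card_mul_index
    rw [hq, card_cover] at this
    intro h3
    obtain ⟨t, ht⟩ := h3
    rw [ht] at this
    have h81 : 81 ∣ 190080 := ⟨q * t, by rw [← this]; ring⟩
    norm_num at h81
  · exact Subtype.ext (Equiv.ext (by decide +kernel))
  · exact Subtype.ext (Equiv.ext (by decide +kernel))
  · intro h
    have : ¬ ∀ x, (genPerm 11 ^ 4 * genPerm 12 ^ 4 * (genPerm 11 ^ 4)⁻¹ * (genPerm 12 ^ 4)⁻¹) x = x := by
      decide +kernel
    exact this fun x => Equiv.ext_iff.1 (congrArg Subtype.val h) x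
  · exact Subtype.ext (Equiv.ext (by decide +kernel))
  · exact Subtype.ext (Equiv.ext (by decide +kernel))

theorem cover_trivial : Cfsg.HasCyclicSchurMultiplier ↥Cover 1 := by
  refine Schur.hasCyclicSchurMultiplier_one fun Δ _ _ σ hσ p hp => ?_
  haveI := Fact.mk hp
  by_cases h2 : p = 2
  · subst h2; exact not_two_dvd σ hσ
  by_cases h3 : p = 3
  · subst h3; exact not_three_dvd σ hσ
  refine Multiplier.isCyclic_case σ hσ fun hd => ?_
  rw [card_cover] at hd
  have hc : (p ^ 2).Coprime (2 ^ 7 * 3 ^ 3) :=
    Nat.Coprime.pow_left _ (Nat.Coprime.mul_right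
      (((Nat.coprime_primes hp Nat.prime_two).2 h2).pow_right _)
      (((Nat.coprime_primes hp Nat.prime_three).2 h3).pow_right _))
  rw [show (190080 : ℕ) = 2 ^ 7 * 3 ^ 3 * 55 by norm_num] at hd
  have hd' : p ^ 2 ∣ 55 := hc.dvd_of_dvd_mul_left hd
  have hlt : p < 8 := by
    have := Nat.le_of_dvd (by norm_num) hd'
    nlinarith
  have key : ∀ q < 8, q ^ 2 ∣ 55 → q = 1 := by decide +kernel
  exact hp.ne_one (key p hlt hd')

end CfsgLib.Mathieu.DoubleTwelve
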