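import Cfsg.Agent.Mathieu.FusionTests

/-!
A certificate for the `2`-fusion system of a Mathieu group.
-/

set_option autoImplicit false

namespace CfsgLib.Mathieu.Code

open Cfsg CfsgLib.Mathieu

/-- The certificate for the fusion system of `M11`. -/
def certM11 : Cert where
  pc := [(838172285978570799956268849986871328, 650770663625437468719924362604879904),
    (319555039706231678938341312928260128, 319555039706231678938341312928260128),
    (719360590536681843314903822610073632, 303972014349329906305369256209090592),
    (486349973926430203268823274221996064, 486349973926430203268823274221996064)]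
  d := 2
  masks := [1, 2, 260, 340568, 340568, 6292512, 340568, 10143872, 260, 340568, 6292512, 10143872, 340568, 340568, 10143872, 10143872, 340568, 10143872, 340568, 10143872, 10143872, 6292512, 6292512, 10143872]
  W := [1, 1, 2, 8, 8, 4, 8, 8, 2, 8, 4, 8, 8, 8, 8, 8, 8, 8, 8, 8, 8, 4, 4, 8]
  Iv := [71749458499921252608, 18974997360900000000, 16000384002304, 1296047232430336]
  roots := [588929837959821941915661524731830304, 719360590536681843314903822610073632]
  z := 486349973926430203268823274221996064
  conjs := [(470825216648206867230073753342903808, 858318108382846634360647340881349696),
    (816785751498047971137249410410426400, 642163559343791046977751040394857504),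
    (319761830278056061202934910400169216, 859537588278408332931959814528016448)]
  steps := [(true, 0, 0, 319555039706231678938341312928260128),
    (true, 0, 1, 470774319203086706725259168901701664),
    (false, 1, 2, 719360590536681843314903822610073632),
    (true, 3, 2, 796134455581813252778404696041064480),
    (false, 0, 2, 969240118097008726526406917528625184),
    (false, 5, 4, 838172285978570799956268849986871328)]

theorem certM11_check : certM11.check = true := by decide +kernel

theorem certM11_pc : ∀ p ∈ certM11.pc, ∃ g ∈ Cfsg.Spor.M11, code g = p.1 ∧ code g⁻¹ = p.2 :=
  rep_of_check inM11 (fun _ h => inM11_mem h) _ (by decide +kernel)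

theorem certM11_conjs : ∀ p ∈ certM11.conjs, ∃ g ∈ Cfsg.Spor.M11, code g = p.1 ∧ code g⁻¹ = p.2 :=
  rep_of_check inM11 (fun _ h => inM11_mem h) _ (by decide +kernel)

end CfsgLib.Mathieu.Code
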