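import Cfsg.Agent.Mathieu.FusionTests

/-!
A certificate for the `2`-fusion system of a Mathieu group.
-/

set_option autoImplicit false

namespace CfsgLib.Mathieu.Code

open Cfsg CfsgLib.Mathieu

/-- The certificate for the fusion system of `M12`. -/
def certM12 : Cert where
  pc := [(887496694538537633946048869139820836, 318975677805467426656801370736692649),
    (860206566224218651291138930063716390, 860206566224218651291138930063716390),
    (859638796281359827749188806331449920, 859638796281359827749188806331449920),
    (940259043414624214251165769468887058, 237860176653674287367011396572561601),
    (984574657262612311324662570656612384, 984574657262612311324662570656612384),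
    (837896251273948185794850242805467718, 837896251273948185794850242805467718)]
  d := 3
  masks := [271187, 271187, 69644, 69644, 271187, 15763616, 271187, 15763616, 271187, 271187, 672768, 15763616, 69644, 271187, 672768, 15763616, 69644, 672768, 271187, 672768, 15763616, 15763616, 15763616, 15763616]
  W := [8, 8, 4, 4, 8, 8, 8, 8, 8, 8, 4, 8, 4, 8, 4, 8, 4, 4, 8, 4, 8, 8, 8, 8]
  Iv := [109839299119260893184, 42467903670174875648, 67109551867921694720, 33554767545158860800, 131073310723276800, 262146621749592064, 131073310723276800, 262146621749592064]
  roots := [887496694538537633946048869139820836, 837571674415832992461244560681995296, 238022237606077627242322270972119233]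
  z := 837896251273948185794850242805467718
  conjs := [(713102189936082114324401414406971396, 305460111132933999026701086830760513),
    (815828686046986537787860339408503216, 849577823145141626862626824712921218),
    (435067357335512955768477865135751209, 594826631233649631332896675851281448),
    (850707251024338418445286208410558534, 731413444981961037517185928281589004)]
  steps := [(true, 0, 0, 944558913980101041870943135326126081),
    (false, 0, 1, 234290472293010193588506207205834962),
    (true, 2, 1, 859963454812070188373965565764635686),
    (false, 3, 1, 940421215921327069738151835091415233),
    (false, 4, 3, 234533663425350959838308044679547090),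
    (true, 5, 2, 859801253374563838922762248489667136),
    (false, 6, 4, 943990642723511586827451626750545106),
    (true, 7, 3, 882344962228977356475742156363411757),
    (false, 1, 8, 887496694538537633946048869139820836),
    (false, 2, 4, 860206566224218651291138930063716390),
    (false, 0, 7, 234127864083396158983920601914215425),
    (false, 11, 4, 859638796281359827749188806331449920),
    (false, 2, 6, 940259043414624214251165769468887058),
    (false, 2, 5, 984574657262612311324662570656612384)]

theorem certM12_check : certM12.check = true := by decide +kernel

theorem certM12_pc : ∀ p ∈ certM12.pc, ∃ g ∈ Cfsg.Spor.M12, code g = p.1 ∧ code g⁻¹ = p.2 :=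
  rep_of_check inM12 (fun _ h => inM12_mem h) _ (by decide +kernel)

theorem certM12_conjs : ∀ p ∈ certM12.conjs, ∃ g ∈ Cfsg.Spor.M12, code g = p.1 ∧ code g⁻¹ = p.2 :=
  rep_of_check inM12 (fun _ h => inM12_mem h) _ (by decide +kernel)

end CfsgLib.Mathieu.Code
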