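import Cfsg.Agent.Mathieu.FusionTests

/-!
A certificate for the `2`-fusion system of a Mathieu group.
-/

set_option autoImplicit false

namespace CfsgLib.Mathieu.Code

open Cfsg CfsgLib.Mathieu

/-- The certificate for the fusion system of `M23`. -/
def certM23 : Cert where
  pc := [(984482237957568493111203300653504007, 984482237957568493111203300653504007),
    (955755928015068249293585099937711217, 975072189528489399209129901694173270),
    (973164375367817024189971771303173381, 983021508178824119584431071499397233),
    (959951455190110878620900316376941991, 959951455190110878620900316376941991),
    (958844717248964307133962771239655456, 958844717248964307133962771239655456),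
    (966187583653244417555601463638594561, 966187583653244417555601463638594561),
    (965833829992016404532995545970808490, 965833829992016404532995545970808490)]
  d := 3
  masks := [7055279, 7055279, 7055279, 7055279, 16400, 7055279, 1054784, 7055279, 7055279, 7055279, 7055279, 1054784, 1054784, 7055279, 16400, 7055279, 7055279, 7055279, 262144, 7055279, 1054784, 7055279, 7055279, 8388608]
  W := [16, 16, 16, 16, 2, 16, 4, 16, 16, 16, 16, 4, 4, 16, 2, 16, 16, 16, 1, 16, 4, 16, 16, 1]
  Iv := [5407635339389129212928, 270402762247054336, 64001536009216, 2152237608079206302720, 2181863248254420198400, 603492244671448064, 5184188929721344, 1074276922359547012096]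
  roots := [956167954309435191133111803321746979, 977498274781760461959892868608042656, 958514494561890721167980236183478791, 980060316260778000606724114553670977]
  z := 965833829992016404532995545970808490
  conjs := [(976856668036781210513992606525348064, 958187317094072556593629625548286560),
    (968832933653650530102356440429837314, 962255294240286210058003807002100225),
    (964635222362756733961250592086349521, 956767179929325867606844616017069523)]
  steps := [(true, 0, 0, 983560576281581766224920731722449154),
    (false, 0, 1, 957030867924018109764175309811657413),
    (true, 2, 1, 958027716749359758555482373488761514),
    (false, 1, 3, 955715363215707123423315308822681285),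
    (false, 4, 2, 984353887729730758296120630555740161),
    (true, 5, 2, 978327437897481816628760986828055594),
    (false, 1, 5, 982853148373840310598912199639662664),
    (false, 7, 6, 976362302117859692502614482841058390),
    (false, 8, 4, 984482237957568493111203300653504007),
    (false, 5, 6, 959690438776250839469477284855073813),
    (false, 10, 2, 955755928015068249293585099937711217),
    (false, 4, 6, 964801684374507829130220825347143362),
    (false, 12, 3, 973164375367817024189971771303173381),
    (false, 1, 6, 965386983228412557581257702069581061),
    (false, 14, 3, 972597379854222717391163598590779074),
    (false, 15, 4, 958653539446298235105150244708000175),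
    (false, 16, 6, 959951455190110878620900316376941991),
    (false, 3, 6, 977498274781760461959892868608042656),
    (false, 18, 3, 967931315712378253923167814725944362),
    (false, 19, 6, 958844717248964307133962771239655456),
    (false, 18, 5, 977870370088680227454959935394227221),
    (false, 21, 6, 966187583653244417555601463638594561)]

theorem certM23_check : certM23.check = true := by decide +kernel

theorem certM23_pc : ∀ p ∈ certM23.pc, ∃ g ∈ Cfsg.Spor.M23, code g = p.1 ∧ code g⁻¹ = p.2 :=
  rep_of_check inM23 (fun _ h => inM23_mem h) _ (by decide +kernel)

theorem certM23_conjs : ∀ p ∈ certM23.conjs, ∃ g ∈ Cfsg.Spor.M23, code g = p.1 ∧ code g⁻¹ = p.2 :=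
  rep_of_check inM23 (fun _ h => inM23_mem h) _ (by decide +kernel)

end CfsgLib.Mathieu.Code
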