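import Cfsg.Prelude.Def_SporadicCombinatorics
import Cfsg.Agent.Eq.Def_SporadicCombinatorics

/-! A concrete model of the field with four elements and of the hexacode inside it. -/

set_option autoImplicit false

namespace CfsgLib.Hexacode

/-- Addition of the four field elements 0, 1, w, w^2 coded as 0, 1, 2, 3. -/
def qAdd (a b : Fin 4) : Fin 4 :=
  ![![0, 1, 2, 3], ![1, 0, 3, 2], ![2, 3, 0, 1], ![3, 2, 1, 0]] a b

/-- Multiplication of the four field elements. -/
def qMul (a b : Fin 4) : Fin 4 :=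
  ![![0, 0, 0, 0], ![0, 1, 2, 3], ![0, 2, 3, 1], ![0, 3, 1, 2]] a b

/-- The three generators of the hexacode. -/
def qGen : Fin 3 → Fin 6 → Fin 4 :=
  ![![2, 3, 3, 2, 3, 2], ![3, 2, 2, 3, 3, 2], ![3, 2, 3, 2, 2, 3]]

/-- The combination of the generators with the given coefficients. -/
def qWord (a b c : Fin 4) : Fin 6 → Fin 4 := fun i =>
  qAdd (qAdd (qMul a (qGen 0 i)) (qMul b (qGen 1 i))) (qMul c (qGen 2 i))

/-- Membership in the hexacode by three parity checks. -/
def qMem (y : Fin 6 → Fin 4) : Bool :=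
  (y 3 == qAdd (qAdd (qMul (y 0) 1) (qMul (y 1) 1)) (qMul (y 2) 1)) &&
  (y 4 == qAdd (qAdd (qMul (y 0) 3) (qMul (y 1) 2)) (qMul (y 2) 1)) &&
  (y 5 == qAdd (qAdd (qMul (y 0) 2) (qMul (y 1) 3)) (qMul (y 2) 1))

theorem qMem_qWord : ∀ a b c : Fin 4, qMem (qWord a b c) = true := by decide +kernel

theorem qCoeff : ∀ p q r : Fin 4, ∃ a b c : Fin 4,
    qWord a b c 0 = p ∧ qWord a b c 1 = q ∧ qWord a b c 2 = r := by
  decide +kernel

theorem qMem_iff (y : Fin 6 → Fin 4) : qMem y = true ↔ ∃ a b c, qWord a b c = y := by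
  constructor
  · intro h
    obtain ⟨a, b, c, h0, h1, h2⟩ := qCoeff (y 0) (y 1) (y 2)
    have h' := qMem_qWord a b c
    simp only [qMem, Bool.and_eq_true, beq_iff_eq] at h h'
    refine ⟨a, b, c, funext fun i => ?_⟩
    fin_cases i
    · exact h0
    · exact h1
    · exact h2
    · exact h'.1.1.trans (by rw [h0, h1, h2]; exact h.1.1.symm)
    · exact h'.1.2.trans (by rw [h0, h1, h2]; exact h.1.2.symm)
    · exact h'.2.trans (by rw [h0, h1, h2]; exact h.2.symm)
  · rintro ⟨a, b, c, rfl⟩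
    exact qMem_qWord a b c

theorem exists_model (F : Type*) [Field F] [Fintype F] (hF : Fintype.card F = 4) (ω : F)
    (hω : ω ^ 2 + ω + 1 = 0) :
    ∃ e : Fin 4 ≃ F, e 0 = 0 ∧ (∀ a b, e (qAdd a b) = e a + e b) ∧
      (∀ a b, e (qMul a b) = e a * e b) ∧
      (Cfsg.hexacode F ω = Submodule.span F (Set.range fun k => e ∘ qGen k)) ∧
      ∀ y : Fin 6 → Fin 4, (e ∘ y ∈ Cfsg.hexacode F ω ↔ qMem y = true) := by
  classical
  have h2 : (2 : F) = 0 := by
    have h4 : ((4 : ℕ) : F) = 0 := by rw [← hF]; exact Nat.cast_card_eq_zero F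
    have : (2 : F) * 2 = 0 := by push_cast at h4; rw [← h4]; norm_num
    simpa using this
  have w0 : ω ≠ 0 := by intro h; rw [h] at hω; simp at hω
  have w1 : ω ≠ 1 := by
    intro h; rw [h] at hω
    apply one_ne_zero (α := F)
    linear_combination hω - h2
  let f : Fin 4 → F := ![0, 1, ω, ω ^ 2]
  have finj : Function.Injective f := by
    have a : ω ^ 2 ≠ 0 := pow_ne_zero 2 w0
    have b : ω ^ 2 ≠ 1 := by
      intro h; apply w0; linear_combination hω - h - h2
    have c : ω ^ 2 ≠ ω := by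
      intro h; apply one_ne_zero (α := F); linear_combination hω - h - ω * h2
    intro i j hij
    fin_cases i <;> fin_cases j <;>
      simp [f, w0, w1, a, b, c, w0.symm, w1.symm, a.symm, b.symm, c.symm] at hij ⊢
  let e := Equiv.ofBijective f ((Fintype.bijective_iff_injective_and_card f).2 ⟨finj, by simp [hF]⟩)
  have ef : ∀ a, e a = f a := fun _ => rfl
  have eadd : ∀ a b, e (qAdd a b) = e a + e b := by
    intro a b
    fin_cases a <;> fin_cases b <;>
      simp [ef, f, qAdd] <;> first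
        | linear_combination hω
        | linear_combination -hω
        | linear_combination hω - h2
        | linear_combination -hω + h2
        | linear_combination hω - (1 + ω) * h2
        | linear_combination -hω + (1 + ω) * h2
        | linear_combination hω - ω * h2
        | linear_combination -hω + ω * h2
        | linear_combination hω - ω ^ 2 * h2
        | linear_combination -hω + ω ^ 2 * h2
        | linear_combination h2
        | linear_combination -h2
        | linear_combination ω * h2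
        | linear_combination -ω * h2
        | linear_combination ω ^ 2 * h2
        | linear_combination -ω ^ 2 * h2
  have w3 : ω ^ 3 = 1 := by linear_combination (ω - 1) * hω
  have emul : ∀ a b, e (qMul a b) = e a * e b := by
    intro a b
    fin_cases a <;> fin_cases b <;>
      simp [ef, f, qMul] <;> first
        | linear_combination w3
        | linear_combination -w3
        | linear_combination ω * w3
        | linear_combination -ω * w3
        | ring
  have g0 : e ∘ qGen 0 = ![ω, ω ^ 2, ω ^ 2, ω, ω ^ 2, ω] := by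
    funext i; fin_cases i <;> rfl
  have g1 : e ∘ qGen 1 = ![ω ^ 2, ω, ω, ω ^ 2, ω ^ 2, ω] := by
    funext i; fin_cases i <;> rfl
  have g2 : e ∘ qGen 2 = ![ω ^ 2, ω, ω ^ 2, ω, ω, ω ^ 2] := by
    funext i; fin_cases i <;> rfl
  have hspan : Cfsg.hexacode F ω = Submodule.span F (Set.range fun k => e ∘ qGen k) := by
    rw [Cfsg.hexacode]
    congr 1
    ext x
    simp only [Set.mem_insert_iff, Set.mem_singleton_iff, Set.mem_range]
    constructor
    · rintro (rfl | rfl | rfl)
      · exact ⟨0, g0⟩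
      · exact ⟨1, g1⟩
      · exact ⟨2, g2⟩
    · rintro ⟨k, rfl⟩
      fin_cases k
      · exact Or.inl g0
      · exact Or.inr (Or.inl g1)
      · exact Or.inr (Or.inr g2)
  refine ⟨e, rfl, eadd, emul, hspan, fun y => ?_⟩
  have hw : ∀ a b c, e ∘ qWord a b c = e a • ![ω, ω ^ 2, ω ^ 2, ω, ω ^ 2, ω] +
      e b • ![ω ^ 2, ω, ω, ω ^ 2, ω ^ 2, ω] + e c • ![ω ^ 2, ω, ω ^ 2, ω, ω, ω ^ 2] := by
    intro a b c
    rw [← g0, ← g1, ← g2]
    funext i
    simp [qWord, eadd, emul]
  rw [qMem_iff, Cfsg.hexacode, Submodule.mem_span_triple]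
  constructor
  · rintro ⟨a, b, c, h⟩
    refine ⟨e.symm a, e.symm b, e.symm c, funext fun i => e.injective ?_⟩
    show (e ∘ qWord _ _ _) i = (e ∘ y) i
    rw [hw, ← h]
    simp
  · rintro ⟨a, b, c, rfl⟩
    exact ⟨e a, e b, e c, (hw a b c).symm⟩

/-- The coordinate permutation with nonzero scalars preserves the hexacode (checked on generators). -/
def qPres (σ : Equiv.Perm (Fin 6)) (d : Fin 6 → Fin 3) : Bool :=
  qMem (fun i => qMul (d i).succ (qGen 0 (σ.symm i))) &&
  qMem (fun i => qMul (d i).succ (qGen 1 (σ.symm i))) &&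
  qMem (fun i => qMul (d i).succ (qGen 2 (σ.symm i)))

/-- Base-3 encoded witnesses for the three-cycles. -/
def qWitList : List ℕ := [0, 0, 0, 0, 0, 0, 0, 0, 405, 567, 45, 63, 0, 567, 0, 405, 420, 426, 0, 405, 567, 0, 624, 600, 0, 63, 132, 210, 0, 45, 0, 45, 552, 312, 63, 0, 0, 0, 567, 405, 63, 45, 0, 0, 0, 0, 0, 0, 405, 0, 0, 567, 312, 210, 567, 0, 405, 0, 552, 132, 45, 0, 600, 426, 0, 63, 63, 0, 624, 420, 45, 0, 0, 405, 0, 567, 132, 552, 567, 0, 0, 405, 600, 624, 0, 0, 0, 0, 0, 0, 405, 567, 0, 0, 366, 723, 420, 312, 0, 723, 0, 366, 426, 210, 0, 366, 723, 0, 0, 567, 405, 0, 210, 312, 405, 0, 567, 0, 426, 420, 567, 405, 0, 0, 723, 366, 0, 0, 0, 0, 0, 0, 624, 552, 366, 0, 0, 723, 600, 132, 723, 0, 366, 0, 0, 45, 420, 624, 0, 63, 63, 0, 312, 552, 0, 45, 132, 600, 0, 366, 0, 723, 210, 426, 723, 0, 0, 366, 0, 0, 0, 0, 0, 0, 45, 63, 366, 723, 0, 0, 0, 63, 426, 600, 45, 0, 45, 0, 210, 132, 63, 0, 552, 624, 0, 723, 366, 0, 312, 420, 366, 0, 723, 0, 63, 45, 723, 366, 0, 0,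 0, 0, 0, 0, 0, 0]

/-- Scalars making the three-cycle i, j, k preserve the hexacode. -/
def qWit (i j k : Fin 6) : Fin 6 → Fin 3 := fun x =>
  ⟨(qWitList.getD (i.val * 36 + j.val * 6 + k.val) 0 / 3 ^ x.val) % 3, Nat.mod_lt _ (by norm_num)⟩

theorem qPres_threeCycle : ∀ i j k : Fin 6, i ≠ j → i ≠ k → j ≠ k →
    qPres (Equiv.swap i k * Equiv.swap i j) (qWit i j k) = true := by
  decide +kernel

theorem qPres_swap : ∀ a b c d e f : Fin 3,
    qPres (Equiv.swap 0 1) ![a, b, c, d, e, f] = false := by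
  decide +kernel

theorem qPres_one : ∀ a b c d e f : Fin 3, qPres 1 ![a, b, c, d, e, f] = true →
    a = b ∧ a = c ∧ a = d ∧ a = e ∧ a = f := by
  decide +kernel

theorem qPres_const : ∀ a : Fin 3, qPres 1 (fun _ => a) = true := by decide +kernel

end CfsgLib.Hexacode
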