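import Cfsg.Agent.Mathieu.OutSmall
import Cfsg.Agent.Mathieu.DataM9
import Mathlib.GroupTheory.SpecificGroups.Quaternion
import Mathlib.GroupTheory.Sylow

/-!
The stabiliser of a dodecad and three of its points: order 72, a normal elementary abelian
subgroup of order 9, quaternion Sylow 2-subgroups.
-/

set_option autoImplicit false

open scoped Pointwise

namespace CfsgLib.Mathieu

open Cfsg CfsgLib.Golay

/-- The stabiliser of a dodecad and three of its points. -/
abbrev dodThree (d : Finset GolayPt) (p q r : GolayPt) : Subgroup (Equiv.Perm GolayPt) :=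
  fixPt (fixPt (fixPt (fixSet M24 d) p) q) r

theorem exists_map_four_dodecad {d : Finset GolayPt} (hd : d ∈ dodecads) {a b c e : GolayPt}
    {a' b' c' e' : GolayPt} (hn : [a, b, c, e].Nodup) (hn' : [a', b', c', e'].Nodup)
    (hm : ∀ x ∈ [a, b, c, e], x ∈ d) (hm' : ∀ x ∈ [a', b', c', e'], x ∈ d) :
    ∃ g ∈ fixSet M24 d, g a = a' ∧ g b = b' ∧ g c = c' ∧ g e = e' := by
  obtain ⟨f, hf, hf'⟩ := Finset.exists_mem_notMem_of_card_lt_card
    (show ([a, b, c, e].toFinset).card < d.card from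
      lt_of_le_of_lt (List.toFinset_card_le _) (by rw [hd.2]; simp))
  obtain ⟨f2, hf2, hf2'⟩ := Finset.exists_mem_notMem_of_card_lt_card
    (show ([a', b', c', e'].toFinset).card < d.card from
      lt_of_le_of_lt (List.toFinset_card_le _) (by rw [hd.2]; simp))
  rw [List.mem_toFinset] at hf' hf2'
  obtain ⟨g, hg, hmap⟩ := exists_map_five_dodecad hd (xs := [a, b, c, e, f])
    (ys := [a', b', c', e', f2]) rfl
    (by simpa [List.nodup_append] using
      (List.nodup_append.2 ⟨hn, List.nodup_singleton f,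
        fun x hx y hy => by rw [List.mem_singleton] at hy; subst hy; exact fun h => hf' (h ▸ hx)⟩ :
        ([a, b, c, e] ++ [f]).Nodup))
    (fun x hx => by
      rcases List.mem_append.1 (show x ∈ [a, b, c, e] ++ [f] from hx) with h | h
      · exact hm x h
      · rw [List.mem_singleton] at h; exact h ▸ hf)
    rfl
    (by simpa [List.nodup_append] using
      (List.nodup_append.2 ⟨hn', List.nodup_singleton f2,
        fun x hx y hy => by rw [List.mem_singleton] at hy; subst hy; exact fun h => hf2' (h ▸ hx)⟩ :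
        ([a', b', c', e'] ++ [f2]).Nodup))
    (fun x hx => by
      rcases List.mem_append.1 (show x ∈ [a', b', c', e'] ++ [f2] from hx) with h | h
      · exact hm' x h
      · rw [List.mem_singleton] at h; exact h ▸ hf2)
  simp only [List.map_cons, List.map_nil, List.cons.injEq, and_true] at hmap
  exact ⟨g, hg, hmap.1, hmap.2.1, hmap.2.2.1, hmap.2.2.2.1⟩

theorem exists_fourth {d : Finset GolayPt} (hd : d ∈ dodecads) (p q r : GolayPt) :
    ∃ s ∈ d, s ≠ p ∧ s ≠ q ∧ s ≠ r := by
  obtain ⟨s, hs, hs'⟩ := Finset.exists_mem_notMem_of_card_lt_card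
    (show ({p, q, r} : Finset GolayPt).card < d.card from
      lt_of_le_of_lt Finset.card_le_three (by rw [hd.2]; norm_num))
  simp only [Finset.mem_insert, Finset.mem_singleton, not_or] at hs'
  exact ⟨s, hs, hs'⟩

theorem card_dodThree {d : Finset GolayPt} (hd : d ∈ dodecads) {p q r : GolayPt} (hp : p ∈ d)
    (hq : q ∈ d) (hr : r ∈ d) (hpq : p ≠ q) (hpr : p ≠ r) (hqr : q ≠ r) :
    Nat.card (dodThree d p q r) = 72 := by
  obtain ⟨s, hs, hsp, hsq, hsr⟩ := exists_fourth hd p q r
  have h2 : orbSet (fixPt (fixSet M24 d) p) q = ↑(d.erase p) := by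
    ext y
    rw [Finset.mem_coe, Finset.mem_erase]
    constructor
    · rintro ⟨g, hg, rfl⟩
      exact ⟨fun e => hpq (g.injective (e.trans hg.2.symm)).symm,
        by rw [← hg.1.2, ← Equiv.Perm.smul_def, Finset.smul_mem_smul_finset_iff]; exact hq⟩
    · intro hy
      obtain ⟨u, hu, hup, huy, hur⟩ := exists_fourth hd p y r
      obtain ⟨v, hv, hvp, hvy, hvu⟩ := exists_fourth hd p y u
      obtain ⟨g, hg, h1, h2, -⟩ := exists_map_four_dodecad hd (a := p) (b := q) (c := r) (e := s)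
        (a' := p) (b' := y) (c' := u) (e' := v)
        (by simp [hpq, hpr, hqr, Ne.symm hsp, Ne.symm hsq, Ne.symm hsr])
        (by simp [Ne.symm hy.1, Ne.symm hup, Ne.symm hvp, Ne.symm huy, Ne.symm hvy, Ne.symm hvu])
        (by simp [hp, hq, hr, hs]) (by simp [hp, hy.2, hu, hv])
      exact ⟨g, ⟨hg, h1⟩, h2⟩
  have h3 : orbSet (fixPt (fixPt (fixSet M24 d) p) q) r = ↑((d.erase p).erase q) := by
    ext y
    rw [Finset.mem_coe, Finset.mem_erase, Finset.mem_erase]
    constructor
    · rintro ⟨g, hg, rfl⟩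
      exact ⟨fun e => hqr (g.injective (e.trans hg.2.symm)).symm,
        fun e => hpr (g.injective (e.trans hg.1.2.symm)).symm,
        by rw [← hg.1.1.2, ← Equiv.Perm.smul_def, Finset.smul_mem_smul_finset_iff]; exact hr⟩
    · intro hy
      obtain ⟨v, hv, hvp, hvq, hvy⟩ := exists_fourth hd p q y
      obtain ⟨g, hg, h1, h2, h3, -⟩ := exists_map_four_dodecad hd (a := p) (b := q) (c := r)
        (e := s) (a' := p) (b' := q) (c' := y) (e' := v)
        (by simp [hpq, hpr, hqr, Ne.symm hsp, Ne.symm hsq, Ne.symm hsr])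
        (by simp [hpq, Ne.symm hy.1, Ne.symm hy.2.1, Ne.symm hvp, Ne.symm hvq, Ne.symm hvy])
        (by simp [hp, hq, hr, hs]) (by simp [hp, hq, hy.2.2, hv])
      exact ⟨g, ⟨⟨hg, h1⟩, h2⟩, h3⟩
  have e1 := card_eq_orbSet_mul (fixPt (fixSet M24 d) p) q
  have e2 := card_eq_orbSet_mul (fixPt (fixPt (fixSet M24 d) p) q) r
  rw [card_fixPt_dodecad hd hp, h2, Set.ncard_coe_finset, Finset.card_erase_of_mem hp, hd.2] at e1
  rw [h3, Set.ncard_coe_finset, Finset.card_erase_of_mem (Finset.mem_erase.2 ⟨hpq.symm, hq⟩),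
    Finset.card_erase_of_mem hp, hd.2] at e2
  show Nat.card (fixPt (fixPt (fixPt (fixSet M24 d) p) q) r) = 72
  norm_num at e1 e2 ⊢
  omega

theorem exists_conj_dodThree {d : Finset GolayPt} (hd : d ∈ dodecads) {p q r : GolayPt}
    (hp : p ∈ d) (hq : q ∈ d) (hr : r ∈ d) (hpq : p ≠ q) (hpr : p ≠ r) (hqr : q ≠ r) :
    ∃ c ∈ M24, c • Cfsg.Spor.squareDodecad = d ∧ c (i2p 0) = p ∧ c (i2p 1) = q ∧ c (i2p 2) = r := by
  obtain ⟨c₀, hc₀, hcd⟩ := exists_map_squareDodecad hd
  obtain ⟨s, hs, hsp, hsq, hsr⟩ := exists_fourth hd p q r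
  have hmem : ∀ i ∈ [0, 1, 2, 3], c₀ (i2p i) ∈ d := fun i hi => by
    rw [← hcd, ← Equiv.Perm.smul_def, Finset.smul_mem_smul_finset_iff]
    refine i2p_mem_D0 ?_
    simp only [List.mem_cons, List.not_mem_nil, or_false] at hi
    rcases hi with rfl | rfl | rfl | rfl <;> decide +kernel
  obtain ⟨g, hg, h1, h2, h3, -⟩ := exists_map_four_dodecad hd (a := c₀ (i2p 0))
    (b := c₀ (i2p 1)) (c := c₀ (i2p 2)) (e := c₀ (i2p 3)) (a' := p) (b' := q) (c' := r) (e' := s)
    (by
      have : ([0, 1, 2, 3].map i2p).Nodup := by decide +kernel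
      simpa using this.map c₀.injective)
    (by simp [hpq, hpr, hqr, Ne.symm hsp, Ne.symm hsq, Ne.symm hsr])
    (by
      intro x hx
      simp only [List.mem_cons, List.not_mem_nil, or_false] at hx
      rcases hx with rfl | rfl | rfl | rfl
      exacts [hmem 0 (by decide), hmem 1 (by decide), hmem 2 (by decide), hmem 3 (by decide)])
    (by simp [hp, hq, hr, hs])
  exact ⟨g * c₀, M24.mul_mem hg.1 hc₀, by rw [mul_smul, hcd]; exact hg.2, h1, h2, h3⟩

/-- The base stabiliser. -/
abbrev m9 : Subgroup (Equiv.Perm GolayPt) :=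
  dodThree Cfsg.Spor.squareDodecad (i2p 0) (i2p 1) (i2p 2)

theorem conj_dodThree_iff {d : Finset GolayPt} {p q r : GolayPt} {c : Equiv.Perm GolayPt}
    (hc : c ∈ M24) (hd : c • Cfsg.Spor.squareDodecad = d) (hp : c (i2p 0) = p)
    (hq : c (i2p 1) = q) (hr : c (i2p 2) = r) (k : Equiv.Perm GolayPt) :
    k ∈ m9 ↔ c * k * c⁻¹ ∈ dodThree d p q r := by
  show (((k ∈ M24 ∧ k • Cfsg.Spor.squareDodecad = Cfsg.Spor.squareDodecad) ∧
      k • i2p 0 = i2p 0) ∧ k • i2p 1 = i2p 1) ∧ k • i2p 2 = i2p 2 ↔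
    ((((c * k * c⁻¹ ∈ M24 ∧ (c * k * c⁻¹) • d = d) ∧ (c * k * c⁻¹) • p = p) ∧
      (c * k * c⁻¹) • q = q) ∧ (c * k * c⁻¹) • r = r)
  rw [conj_mem_M24_iff hc, conj_fix_iff c k _ d hd, conj_fix_iff c k _ p hp,
    conj_fix_iff c k _ q hq, conj_fix_iff c k _ r hr]

/-- A table of the base stabiliser. -/
def m9OK (t : List ℕ) : Bool :=
  tabInM24 t && maskStable t maskD0 && ap (pk t) 0 == 0 && ap (pk t) 1 == 1 && ap (pk t) 2 == 2

theorem m9_facts : m9List.all m9OK = true ∧ m9List.Nodup ∧ m9List.length = 72 ∧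
    m9Gens.all (fun t => m9List.contains t) = true := by decide +kernel

theorem rep_m9 {t : List ℕ} (ht : t ∈ m9List) : Rep m9 t := by
  have h := List.all_eq_true.1 m9_facts.1 t ht
  simp only [m9OK, Bool.and_eq_true, beq_iff_eq] at h
  obtain ⟨g, hg, rfl⟩ := rep_of_tabInM24 h.1.1.1.1
  refine ⟨g, ⟨⟨⟨⟨hg, ?_⟩, ?_⟩, ?_⟩, ?_⟩, rfl⟩
  · show g • Cfsg.Spor.squareDodecad = Cfsg.Spor.squareDodecad
    rw [squareDodecad_eq]
    exact smul_ofMask_of_stable g maskD0 h.1.1.1.2
  all_goals
    show g (i2p _) = i2p _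
    apply p2i_injective
    rw [← ap_toTab', p2i_i2p _ (by norm_num)]
  exacts [h.1.1.2, h.1.2, h.2]

theorem card_m9 : Nat.card m9 = 72 :=
  card_dodThree squareDodecad_mem (i2p_mem_D0 (by decide +kernel))
    (i2p_mem_D0 (by decide +kernel)) (i2p_mem_D0 (by decide +kernel)) (by decide) (by decide)
    (by decide)

theorem toTab_mem_m9List {g : Equiv.Perm GolayPt} (hg : g ∈ m9) : toTab g ∈ m9List := by
  classical
  choose f hf hft using fun t : m9List.toFinset => rep_m9 (List.mem_toFinset.1 t.2)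
  let F : m9List.toFinset → m9 := fun t => ⟨f t, hf t⟩
  have hF : Function.Injective F := fun a b e => by
    have e' : f a = f b := congrArg Subtype.val e
    exact Subtype.ext (by rw [← hft a, ← hft b, e'])
  haveI : Fintype m9 := Fintype.ofFinite _
  have hsurj := ((Fintype.bijective_iff_injective_and_card F).2 ⟨hF, by
    rw [Fintype.card_coe, List.toFinset_card_of_nodup m9_facts.2.1, m9_facts.2.2.1,
      ← Nat.card_eq_fintype_card, card_m9]⟩).2 ⟨g, hg⟩
  obtain ⟨t, ht⟩ := hsurj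
  have e : f t = g := congrArg Subtype.val ht
  rw [← e, hft t]
  exact List.mem_toFinset.1 t.2

theorem dodThree_transitive_compl {d : Finset GolayPt} (hd : d ∈ dodecads) {p q r : GolayPt}
    (hp : p ∈ d) (hq : q ∈ d) (hr : r ∈ d) (hpq : p ≠ q) (hpr : p ≠ r) (hqr : q ≠ r)
    {x y : GolayPt} (hx : x ∉ d) (hy : y ∉ d) : ∃ g ∈ dodThree d p q r, g x = y := by
  obtain ⟨c, hc, hcd, h0, h1, h2⟩ := exists_conj_dodThree hd hp hq hr hpq hpr hqr
  have hcov : ((List.range 24).filter fun i => !maskD0.testBit i).all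
      (fun i => (reach m9Gens 5 12).contains i) = true := by decide +kernel
  have key : ∀ z, z ∉ d → ∃ g ∈ m9, g (i2p 5) = c⁻¹ z := by
    intro z hz
    refine exists_map_of_reach (gs := m9Gens) (fun t ht => rep_m9 ?_) (by norm_num) ?_
    · have := List.all_eq_true.1 m9_facts.2.2.2 t ht
      simpa using this
    · have hz' : (c⁻¹ z) ∉ Cfsg.Spor.squareDodecad := by
        rw [← Equiv.Perm.smul_def, Finset.inv_smul_mem_iff, hcd]; exact hz
      rw [squareDodecad_eq, mem_ofMask_iff, Bool.not_eq_true] at hz'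
      have := List.all_eq_true.1 hcov (p2i (c⁻¹ z))
        (List.mem_filter.2 ⟨List.mem_range.2 (p2i_lt _), by rw [hz']; rfl⟩)
      simpa using this
  obtain ⟨a, ha, hax⟩ := key x hx
  obtain ⟨b, hb, hby⟩ := key y hy
  refine ⟨c * (b * a⁻¹) * c⁻¹,
    (conj_dodThree_iff hc hcd h0 h1 h2 _).1 (m9.mul_mem hb (m9.inv_mem ha)), ?_⟩
  simp only [Equiv.Perm.mul_apply]
  rw [← hax, Equiv.Perm.coe_inv a, Equiv.symm_apply_apply, hby, Equiv.Perm.coe_inv,
    Equiv.apply_symm_apply]

/-- The tables of a quaternion subgroup, indexed by the quaternion group of order eight. -/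
def quatTab : QuaternionGroup 2 → List ℕ
  | .a i => quatA.getD i.val []
  | .xa i => quatX.getD i.val []

theorem quat_facts : (∀ u v : QuaternionGroup 2, quatTab (u * v) = fcomp (quatTab u) (quatTab v)) ∧
    (∀ u v : QuaternionGroup 2, quatTab u = quatTab v → u = v) ∧
    (∀ u : QuaternionGroup 2, m9List.contains (quatTab u) = true) ∧
    quatTab 1 = idTab ∧ (m9List.filter fun t => cntFix (pk t) 3 == 24).length = 9 := by
  decide +kernel

theorem m9_spec : (∀ Q : Sylow 3 m9, (Q : Subgroup m9).Normal ∧ Nat.card Q = 9 ∧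
      ∀ x ∈ (Q : Subgroup m9), x ^ 3 = 1) ∧
    ∀ P : Sylow 2 m9, Nonempty (P ≃* QuaternionGroup 2) := by
  classical
  haveI : Fact (Nat.Prime 3) := ⟨Nat.prime_three⟩
  haveI : Fact (Nat.Prime 2) := ⟨Nat.prime_two⟩
  have hS : {x : m9 | x ^ 3 = 1}.ncard = 9 := by
    have himg : (fun x : m9 => toTab (x : Equiv.Perm GolayPt)) '' {x : m9 | x ^ 3 = 1} =
        ↑(m9List.filter fun t => cntFix (pk t) 3 == 24).toFinset := by
      ext t
      simp only [Set.mem_image, Set.mem_setOf_eq, List.coe_toFinset, List.mem_filter, beq_iff_eq]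
      constructor
      · rintro ⟨x, hx, rfl⟩
        exact ⟨toTab_mem_m9List x.2, cntFix_of_pow_eq_one (by
          rw [← Subgroup.coe_pow, hx, Subgroup.coe_one])⟩
      · rintro ⟨ht, hc⟩
        obtain ⟨g, hg, rfl⟩ := rep_m9 ht
        exact ⟨⟨g, hg⟩, Subtype.ext (eq_one_of_cntFix hg.1.1.1.1 (by omega)), rfl⟩
    rw [← Set.ncard_image_of_injective _ (f := fun x : m9 => toTab (x : Equiv.Perm GolayPt))
      (fun a b e => Subtype.ext (toTab_injective e)), himg, Set.ncard_coe_finset,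
      List.toFinset_card_of_nodup (m9_facts.2.1.filter _), quat_facts.2.2.2.2]
  have hnine : ∀ Q : Sylow 3 m9, Nat.card Q = 9 := fun Q => by
    rw [Q.card_eq_multiplicity, card_m9, show 72 = 3 * (3 * 8) from rfl,
      Nat.factorization_mul (by norm_num) (by norm_num),
      Nat.factorization_mul (by norm_num) (by norm_num), Finsupp.add_apply, Finsupp.add_apply,
      Nat.Prime.factorization_self (by norm_num),
      Nat.factorization_eq_zero_of_not_dvd (by norm_num)]
    norm_num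
  have hnineSet : ∀ Q : Sylow 3 m9, ∀ x ∈ (Q : Subgroup m9), x ^ 3 = 1 := by
    intro Q x hx
    obtain ⟨g, hg⟩ := x
    have h9 : (⟨g, hg⟩ : m9) ^ 9 = 1 := by
      have h := pow_card_eq_one' (G := (Q : Subgroup m9)) (x := ⟨_, hx⟩)
      rw [hnine Q] at h
      exact congrArg Subtype.val h
    have hall : m9List.all (fun t => !(cntFix (pk t) 9 == 24) || cntFix (pk t) 3 == 24) = true := by
      decide +kernel
    have h := List.all_eq_true.1 hall _ (toTab_mem_m9List hg)
    rw [cntFix_of_pow_eq_one (by simpa using congrArg Subtype.val h9)] at h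
    simp only [beq_self_eq_true, Bool.not_true, Bool.false_or, beq_iff_eq] at h
    exact Subtype.ext (eq_one_of_cntFix hg.1.1.1.1 (by omega))
  refine ⟨fun Q => ⟨?_, hnine Q, hnineSet Q⟩, fun P => ?_⟩
  · have heq : ((Q : Subgroup m9) : Set m9) = {x : m9 | x ^ 3 = 1} :=
      Set.eq_of_subset_of_ncard_le (fun x hx => hnineSet Q x hx)
        (by rw [hS, ← Nat.card_coe_set_eq]; exact (hnine Q).ge)
    refine ⟨fun x hx g => ?_⟩
    have hx3 : x ^ 3 = 1 := hnineSet Q x hx
    have : g * x * g⁻¹ ∈ {y : m9 | y ^ 3 = 1} := by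
      show (g * x * g⁻¹) ^ 3 = 1
      rw [conj_pow, hx3, mul_one, mul_inv_cancel]
    rwa [← heq] at this
  choose f hf hft using fun u => rep_m9 (List.contains_iff_mem.1 (quat_facts.2.2.1 u))
  let F : QuaternionGroup 2 →* m9 :=
    { toFun := fun u => ⟨f u, hf u⟩
      map_one' := Subtype.ext (toTab_injective (by
        show toTab (f 1) = toTab 1
        rw [hft, quat_facts.2.2.2.1, toTab_one]))
      map_mul' := fun u v => Subtype.ext (toTab_injective (by
        show toTab (f (u * v)) = toTab (f u * f v)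
        rw [hft, ← fcomp_toTab, hft, hft, quat_facts.1])) }
  have hF : Function.Injective F := fun u v e => quat_facts.2.1 u v (by
    rw [← hft u, ← hft v]; exact congrArg (fun x : m9 => toTab (x : Equiv.Perm GolayPt)) e)
  have hcard : Nat.card F.range = 8 := by
    rw [← Nat.card_congr (MonoidHom.ofInjective hF).toEquiv, Nat.card_eq_fintype_card,
      QuaternionGroup.card]
  obtain ⟨R, hR⟩ := (IsPGroup.of_card (n := 3) (by rw [hcard]; norm_num) :
    IsPGroup 2 F.range).exists_le_sylow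
  have hR8 : Nat.card R = 8 := by
    rw [R.card_eq_multiplicity, card_m9, show 72 = 2 * (2 * (2 * 9)) from rfl,
      Nat.factorization_mul (by norm_num) (by norm_num),
      Nat.factorization_mul (by norm_num) (by norm_num),
      Nat.factorization_mul (by norm_num) (by norm_num), Finsupp.add_apply, Finsupp.add_apply,
      Finsupp.add_apply, Nat.Prime.factorization_self (by norm_num),
      Nat.factorization_eq_zero_of_not_dvd (by norm_num)]
    norm_num
  have heq : F.range = (R : Subgroup m9) :=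
    Subgroup.eq_of_le_of_card_ge hR (by rw [hcard]; exact hR8.le)
  exact ⟨(P.equiv R).trans ((MulEquiv.subgroupCongr heq.symm).trans
    (MonoidHom.ofInjective hF).symm)⟩

/-- Transfer of the structure to an arbitrary dodecad and triple. -/
theorem dodThree_spec {d : Finset GolayPt} (hd : d ∈ dodecads) {p q r : GolayPt} (hp : p ∈ d)
    (hq : q ∈ d) (hr : r ∈ d) (hpq : p ≠ q) (hpr : p ≠ r) (hqr : q ≠ r) :
    Nonempty (dodThree d p q r ≃* m9) := by
  obtain ⟨c, hc, hcd, h0, h1, h2⟩ := exists_conj_dodThree hd hp hq hr hpq hpr hqr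
  exact ⟨(nonempty_conj_equiv c (conj_dodThree_iff hc hcd h0 h1 h2)).some.symm⟩

/-- The joint stabiliser inside `M24` as a subgroup of the symmetric group. -/
def stabDodThreeEquiv (d : Finset GolayPt) (p q r : GolayPt) :
    ↥(MulAction.stabilizer M24 d ⊓ MulAction.stabilizer M24 p ⊓ MulAction.stabilizer M24 q ⊓
      MulAction.stabilizer M24 r) ≃* dodThree d p q r where
  toFun g := ⟨g.1.1, ⟨⟨⟨g.1.2, g.2.1.1.1⟩, g.2.1.1.2⟩, g.2.1.2⟩, g.2.2⟩
  invFun g := ⟨⟨g.1, g.2.1.1.1.1⟩, ⟨⟨g.2.1.1.1.2, g.2.1.1.2⟩, g.2.1.2⟩, g.2.2⟩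
  left_inv _ := rfl
  right_inv _ := rfl
  map_mul' _ _ := rfl

theorem structure_of_equiv {G : Type*} [Group G] [Finite G] (e : G ≃* m9) :
    (∀ Q : Sylow 3 G, (Q : Subgroup G).Normal ∧ Nat.card Q = 9 ∧
      ∀ x ∈ (Q : Subgroup G), x ^ 3 = 1) ∧
    ∀ P : Sylow 2 G, Nonempty (P ≃* QuaternionGroup 2) := by
  haveI : Fact (Nat.Prime 3) := ⟨Nat.prime_three⟩
  haveI : Fact (Nat.Prime 2) := ⟨Nat.prime_two⟩
  refine ⟨fun Q => ?_, fun P => ?_⟩
  · set R := Q.mapSurjective (f := e.toMonoidHom) e.surjective with hR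
    have hRQ : (R : Subgroup m9) = (Q : Subgroup G).map e.toMonoidHom := rfl
    obtain ⟨hn, hc, hx⟩ := m9_spec.1 R
    refine ⟨?_, ?_, fun x hxQ => e.injective ?_⟩
    · have h : (Q : Subgroup G) = (R : Subgroup m9).comap e.toMonoidHom := by
        rw [hRQ, Subgroup.comap_map_eq_self_of_injective e.injective]
      rw [h]
      exact Subgroup.Normal.comap hn _
    · rw [← hc, hRQ]
      exact (Subgroup.card_map_of_injective (f := e.toMonoidHom) e.injective).symm
    · rw [map_pow, map_one]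
      exact hx _ (hRQ ▸ ⟨x, hxQ, rfl⟩)
  · set R := P.mapSurjective (f := e.toMonoidHom) e.surjective with hR
    exact ⟨((e.subgroupMap (P : Subgroup G)).trans
      (MulEquiv.subgroupCongr (show (P : Subgroup G).map e.toMonoidHom = (R : Subgroup m9) from rfl))).trans
        (m9_spec.2 R).some⟩

end CfsgLib.Mathieu
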